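import Cfsg.Agent.L0.Fi22.Cov3C0
import Cfsg.Agent.L0.Fi22.Cov3C1
import Cfsg.Agent.L0.Fi22.Cov3C2

/-! Generated action table. -/

set_option autoImplicit false
set_option maxRecDepth 100000

namespace Cfsg.Agent.L0.Fi22Cov3

theorem a50 : ∀ j < 50, allR chk 10 j = true := (forall_lt_succ' (forall_lt_succ' (forall_lt_succ' (forall_lt_succ' (forall_lt_succ' (forall_lt_succ' (forall_lt_succ' (forall_lt_succ' (forall_lt_succ' (forall_lt_succ' (forall_lt_succ' (forall_lt_succ' (forall_lt_succ' (forall_lt_succ' (forall_lt_succ' (forall_lt_succ' (forall_lt_succ' (forall_lt_succ' (forall_lt_succ' (forall_lt_succ' (forall_lt_succ' (forall_lt_succ' (forall_lt_succ' (forall_lt_succ' (forall_lt_succ' (forall_lt_succ' (forall_lt_succ' (forall_lt_succ' (forall_lt_succ' (forall_lt_succ' (forall_lt_succ' (forall_lt_succ' (forall_lt_succ' (forall_lt_succ' (forall_lt_succ' (forall_lt_succ' (forall_lt_succ' (forall_lt_succ' (forall_lt_succ' (forall_lt_succ' (forall_lt_succ' (forall_lt_succ' (forall_lt_succ'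 (forall_lt_succ' (forall_lt_succ' (forall_lt_succ' (forall_lt_succ' (forall_lt_succ' (forall_lt_succ' (forall_lt_succ' forall_lt_zero' b0) b1) b2) b3) b4) b5) b6) b7) b8) b9) b10) b11) b12) b13) b14) b15) b16) b17) b18) b19) b20) b21) b22) b23) b24) b25) b26) b27) b28) b29) b30) b31) b32) b33) b34) b35) b36) b37) b38) b39) b40) b41) b42) b43) b44) b45) b46) b47) b48) b49)
theorem all : ∀ c < 61776, chk c = true := fun c hc =>
  allR_glue (d := 10) (n := 61) (forall_lt_succ' (forall_lt_succ' (forall_lt_succ' (forall_lt_succ' (forall_lt_succ' (forall_lt_succ' (forall_lt_succ' (forall_lt_succ' (forall_lt_succ' (forall_lt_succ' (forall_lt_succ' a50 b50) b51) b52) b53) b54) b55) b56) b57) b58) b59) b60) c (lt_of_lt_of_le hc (by norm_num))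

theorem rep {R : List (List ℕ)} (hR : RL.map Prod.fst = R) :
    Rep 12 R (ZMod 3) 1 (valL RL 3) :=
  rep_of_chk hR (by norm_num) (by norm_num) (hR ▸ by decide +kernel) (hR ▸ by decide +kernel)
    (hR ▸ by decide +kernel) le_rfl all

end Cfsg.Agent.L0.Fi22Cov3
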