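import Cfsg.Agent.L0.CoxPres
import Cfsg.Agent.L0.Fi22.Grp
import Cfsg.Agent.L0.Fi22.Cov2
import Cfsg.Agent.L0.Fi22.Cov3

/-! The covering group of Fi22. -/

set_option autoImplicit false
set_option maxRecDepth 100000

namespace Cfsg.Agent.L0.Fi22G

open Cfsg.Spor

theorem isPres0 : IsPres x 9 Fi22Act.R :=
  isPres_cox hall hx hiv (by decide +kernel) (by decide +kernel) (by decide +kernel)
    (by decide +kernel) (by decide +kernel)

/-- the words for the extra letters -/
def W : List (List ℕ) := [[3, 2, 1, 3, 4, 5, 3, 7, 8], [0, 1, 2, 3, 4, 5, 7], [1, 2, 3, 4, 5, 6, 7]]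

/-- the relators with the extra letters -/
def R : List (List ℕ) := Fi22Cov2.RL.map Prod.fst

theorem isPres : IsPres (fun i => ev x (subW 9 W i)) 12 R :=
  isPres0.extend (IV := [0, 1, 2, 3, 4, 5, 6, 7, 8]) rfl (by decide +kernel) (by decide +kernel) (by decide +kernel)
    (by decide +kernel) (by decide +kernel) (by decide +kernel)

theorem lower : LowerMult Fi22 (Multiplicative (ZMod 6)) :=
  haveI := card_le.1
  lower_coprime (m := 2) (n := 3) (by norm_num)
    (lower_two isPres (Fi22Cov2.rep rfl) (Fi22Cov3.rep (by decide +kernel))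
      [(9, 0), (9, 2), (-18, 6), (3, 9), (-3, 17), (-3, 24), (3, 30), (-3, 35), (3, 39), (3, 46), (-3, 47), (-27, 49), (27, 50)]
      [(20, 2), (40, 3), (20, 4), (20, 5), (20, 7), (20, 8), (20, 18), (4, 45), (-40, 48)]
      (by decide +kernel) (by decide +kernel) (by decide +kernel))

end Cfsg.Agent.L0.Fi22G
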